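import Mathlib
import Cfsg.Agent.Lib.Helper83.MinSU.Defs
import Cfsg.Agent.Lib.Helper81.MinSU.LOC
import Cfsg.Agent.Lib.Helper81.MinSU.G1
import Cfsg.Agent.Lib.Helper62.MinSU.S1
import Cfsg.Agent.Lib.Helper75.MinSU.ALPHA
import Cfsg.Agent.Lib.Helper54.MinSU.WB4
import Cfsg.Agent.Lib.Helper75.MinSU.WBI
import Cfsg.Agent.S0780

set_option autoImplicit false

namespace Cfsg.Agent.Lib.Helper83.MinSU

open Matrix Cfsg.Agent.Lib.Helper13 Cfsg.Agent.Lib.Helper5 Cfsg.Agent.Lib.Helper57.RootSU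
open Cfsg.Agent.Lib.Helper81.MinSU Cfsg.Agent.Lib.Helper62.MinSU Cfsg.Agent.Lib.Helper75.MinSU
  Cfsg.Agent.Lib.Helper54.MinSU

variable {F : Type*} [Field F] [Fintype F] {q m n : ℕ}

/-- the conjugate `g⁻¹ H g` -/
def cj (g : Cfsg.SU n F q) (H : Subgroup (Cfsg.SU n F q)) : Subgroup (Cfsg.SU n F q) :=
  H.comap (MulAut.conj g).toMonoidHom

omit [Fintype F] in
lemma mem_cj (g : Cfsg.SU n F q) (H : Subgroup (Cfsg.SU n F q)) (x : Cfsg.SU n F q) :
    x ∈ cj g H ↔ g * x * g⁻¹ ∈ H := Iff.rfl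

omit [Fintype F] in
lemma index_cj (g : Cfsg.SU n F q) (H : Subgroup (Cfsg.SU n F q)) : (cj g H).index = H.index :=
  Subgroup.index_comap_of_surjective H (MulAut.conj g).surjective

lemma ut_mem_cj (hF : Fintype.card F = q ^ 2) (g : Cfsg.SU n F q) (H : Subgroup (Cfsg.SU n F q))
    {v : Fin n → F} {c : F} (hv : Cfsg.hermForm n F q v v = 0) (hc : c + c ^ q = 0) :
    ut hF v c ∈ cj g H ↔ ut hF (g.1.1 *ᵥ v) c ∈ H := by
  rw [mem_cj, ut_conj hF g hv hc]

lemma relIndex_le_index' {G : Type*} [Group G] [Finite G] (H K : Subgroup G) :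
    H.relIndex K ≤ H.index := by
  have h1 := Subgroup.index_inf_le (H := H) (K := K)
  rw [← Subgroup.relIndex_mul_index (inf_le_right : H ⊓ K ≤ K), Subgroup.inf_relIndex_right] at h1
  exact Nat.le_of_mul_le_mul_right h1 (Nat.pos_of_ne_zero K.index_ne_zero_of_finite)

instance : Finite (Cfsg.SU n F q) := Subtype.finite

lemma iota_ne_zero {w : Fin m → F} (hw : w ≠ 0) : (iota w : Fin (m + 2) → F) ≠ 0 := by
  intro h
  apply hw
  funext i
  have := congrFun h i.succ.succ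
  simpa [iota] using this

/-- all root groups in `H` implies `H = ⊤`. -/
lemma eq_top_of_all (hF : Fintype.card F = q ^ 2) (hn : 4 ≤ n) (H : Subgroup (Cfsg.SU n F q))
    (h : ∀ v : Fin n → F, v ≠ 0 → Cfsg.hermForm n F q v v = 0 → ∀ c : F, c + c ^ q = 0 →
      ut hF v c ∈ H) : H = ⊤ := by
  rw [eq_top_iff, ← Cfsg.Agent.S0780.result hF n (by omega) (by omega), Subgroup.closure_le]
  rintro A ⟨v, c, hv, hA⟩
  by_cases hv0 : v = 0
  · have : A = 1 := by
      apply SU_ext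
      rw [hA, hv0]
      ext i j
      simp [Cfsg.unitaryTransvection, Matrix.vecMulVec]
    rw [this]
    exact H.one_mem
  have hc : c + c ^ q = 0 := skew_of_ut_mem hF A hv0 hv hA
  have : A = ut hF v c := by
    apply SU_ext_mulVec
    intro x
    rw [ut_mulVec hF hv hc, hA, unitaryTransvection_mulVec]
  rw [this]
  exact h v hv0 hv c hc

/-- The inductive step. -/
theorem main_step (hF : Fintype.card F = q ^ 2) (hq : 3 ≤ q) (hm : 4 ≤ m) (he : Even m)
    (hWB : WB F q m) (H : Subgroup (Cfsg.SU (m + 2) F q)) (hH : H ≠ ⊤) :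
    NU q (m + 2) ≤ H.index := by
  obtain ⟨e, L, he0, hee, hrho, heps⟩ := exists_loc hF m (by omega)
  have he2 : Even (m + 2) := he.add even_two
  obtain ⟨W, hWn, hWd, hWm, hWf⟩ := exists_iotaW (q := q) (F := F) hF m
  have heut : ∀ (w : Fin m → F) (c : F), Cfsg.hermForm m F q w w = 0 → c + c ^ q = 0 →
      ((L.eps (ut hF w c) : Pe q e) : Cfsg.SU (m + 2) F q) = ut hF (iota w) c := by
    intro w c hw hc
    exact eq_ut_iota hF w c hw hc _ (heps _)
  -- case (I)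
  by_cases hI : ∃ g : Cfsg.SU (m + 2) F q, ∀ l, g * ((L.eps l : Pe q e) : Cfsg.SU (m + 2) F q) * g⁻¹ ∈ H
  · obtain ⟨g, hg⟩ := hI
    have := step1 hF hq (by omega) he2 (cj g H) (by
      intro h
      apply hH
      have h2 := index_cj g H
      rw [h, Subgroup.index_top] at h2
      exact Subgroup.index_eq_one.1 h2.symm) W hWn (by omega) (by
      intro v hv hv0
      obtain ⟨w, rfl⟩ := (hWm v).1 hv
      rw [hWf] at hv0
      refine ⟨by rw [hWf]; exact hv0, fun c hc => ?_⟩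
      rw [← heut w c hv0 hc, mem_cj]
      exact hg _)
    rw [index_cj] at this
    exact this
  push Not at hI
  -- the local set-up for a conjugate
  have key : ∀ g : Cfsg.SU (m + 2) F q,
      ((cj g H).subgroupOf (Pe q e)).index ≤ H.index ∧
      (∀ a : F, a + a ^ q = 0 → (L.rho 0 a ∈ (cj g H).subgroupOf (Pe q e) ↔
        ut hF (g.1.1 *ᵥ e) a ∈ H)) ∧
      (∀ (w : Fin m → F) (c : F), Cfsg.hermForm m F q w w = 0 → c + c ^ q = 0 →
        (L.eps (ut hF w c) ∈ (cj g H).subgroupOf (Pe q e) ↔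
          ut hF (g.1.1 *ᵥ iota w) c ∈ H)) ∧
      ∀ x : Pe q e, ∃ l, x * L.eps l * x⁻¹ ∉ (cj g H).subgroupOf (Pe q e) := by
    intro g
    refine ⟨(relIndex_le_index' _ _).trans (index_cj g H).le, ?_, ?_, ?_⟩
    · intro a ha
      rw [Subgroup.mem_subgroupOf, hrho a ha, ut_mem_cj hF g H hee ha]
    · intro w c hw hc
      rw [Subgroup.mem_subgroupOf, heut w c hw hc, ut_mem_cj hF g H (by rw [hWf]; exact hw) hc]
    · intro x
      obtain ⟨l, hl⟩ := hI (g * x)
      refine ⟨l, fun h => hl ?_⟩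
      rw [Subgroup.mem_subgroupOf, mem_cj] at h
      simp only [Subgroup.coe_mul, Subgroup.coe_inv] at h
      have e1 : g * ↑x * ↑(L.eps l) * (g * ↑x)⁻¹ = g * (↑x * ↑(L.eps l) * (↑x)⁻¹) * g⁻¹ := by group
      rw [e1]
      exact h
  by_cases h0 : ∃ u : Fin (m + 2) → F, u ≠ 0 ∧ Cfsg.hermForm (m + 2) F q u u = 0 ∧
      ∀ c : F, c + c ^ q = 0 → ut hF u c ∈ H → c = 0
  · obtain ⟨u, hu, huu, hu0⟩ := h0
    obtain ⟨g, hg⟩ := exists_su_map hF (by omega) e u he0 hu hee huu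
    obtain ⟨k1, k2, -, k4⟩ := key g
    obtain ⟨s, hs0, hs⟩ := exists_skew_q hF
    have hRF : L.RF ((cj g H).subgroupOf (Pe q e)) := by
      refine ⟨⟨s, hs, fun h => hs0 (hu0 s hs ?_)⟩, k4⟩
      rw [k2 s hs, hg] at h
      exact h
    refine (local_alpha L _ hF hq hm he hWB hRF ?_).trans k1
    intro a ha h
    rw [k2 a ha, hg] at h
    exact hu0 a ha h
  · push Not at h0
    obtain ⟨u, hu, huu, c0, hc0, hu0⟩ : ∃ u : Fin (m + 2) → F, u ≠ 0 ∧
        Cfsg.hermForm (m + 2) F q u u = 0 ∧ ∃ c : F, c + c ^ q = 0 ∧ ut hF u c ∉ H := by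
      by_contra hcon
      push Not at hcon
      exact hH (eq_top_of_all hF (by omega) H hcon)
    obtain ⟨g, hg⟩ := exists_su_map hF (by omega) e u he0 hu hee huu
    obtain ⟨k1, k2, k3, k4⟩ := key g
    have hRF : L.RF ((cj g H).subgroupOf (Pe q e)) := by
      refine ⟨⟨c0, hc0, fun h => hu0 ?_⟩, k4⟩
      rw [k2 c0 hc0, hg] at h
      exact h
    refine (local_beta L _ hF hm he hRF ?_ ?_).trans k1
    · obtain ⟨c, hc, hcH, hcne⟩ := h0 u hu huu
      exact ⟨c, hcne, hc, by rw [k2 c hc, hg]; exact hcH⟩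
    · intro w hw hww
      obtain ⟨c, hc, hcH, hcne⟩ := h0 (g.1.1 *ᵥ iota w) (Cfsg.Agent.Lib.Helper5.su_mulVec_ne_zero g (iota_ne_zero hw))
        (by rw [SU_preserves, hWf]; exact hww)
      exact ⟨c, hcne, hc, by rw [k3 w c hww hc]; exact hcH⟩

/-- The lower bound in `SU_n(q)`, `n = 2k + 6`. -/
theorem main_su (hF : Fintype.card F = q ^ 2) (hq : 3 ≤ q) (k : ℕ) :
    ∀ H : Subgroup (Cfsg.SU (2 * k + 6) F q), H ≠ ⊤ → NU q (2 * k + 6) ≤ H.index := by
  induction k with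
  | zero => exact fun H hH => main_step (m := 4) hF hq le_rfl (by decide) (wb4 hF hq) H hH
  | succ k IH =>
    intro H hH
    exact main_step (m := 2 * k + 6) hF hq (by omega) (by
      rw [show 2 * k + 6 = 2 * (k + 3) by ring]; exact even_two_mul _)
      (wb_of_ih hF (by omega) (by
        rw [show 2 * k + 6 = 2 * (k + 3) by ring]; exact even_two_mul _) IH) H hH

end Cfsg.Agent.Lib.Helper83.MinSU
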