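import Mathlib
import Cfsg.Agent.Lib.Helper83.MinSU.Main
import Cfsg.Agent.Lib.Helper83.MinSU.DefsO
import Cfsg.Agent.Lib.Helper37.MinSU.oS1
import Cfsg.Agent.Lib.Helper12.MinSU.oALPHA
import Cfsg.Agent.Lib.Helper22.MinSU.oTWO
import Cfsg.Agent.Lib.Helper84.MinSU.oZT0
import Cfsg.Agent.Lib.Helper92.MinSU.oZT1
import Cfsg.Agent.Lib.Helper92.MinSU.oZT2
import Cfsg.Agent.Lib.Helper1.MinSU.oG3
import Cfsg.Agent.Lib.Helper57.MinSU.oWB3
import Cfsg.Agent.Lib.Helper1.MinSU.oWBI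
import Cfsg.Agent.Lib.Helper84.MinSU.oENDof
import Cfsg.Agent.Lib.Helper15.MinSU.oE3
import Cfsg.Agent.Lib.Helper12.MinSU.oE1c
import Cfsg.Agent.Lib.Helper90.MinSU.oE1a
import Cfsg.Agent.Lib.Helper22.MinSU.oE1b

set_option autoImplicit false

namespace Cfsg.Agent.Lib.Helper83.MinSU

open Matrix Cfsg.Agent.Lib.Helper13 Cfsg.Agent.Lib.Helper5 Cfsg.Agent.Lib.Helper57.RootSU
open Cfsg.Agent.Lib.Helper81.MinSU

variable {F : Type*} [Field F] [Fintype F] {q m n : ℕ}

lemma nondeg_top (hF : Fintype.card F = q ^ 2) : Nondeg q (⊤ : Submodule F (Fin m → F)) := by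
  intro u _ h
  by_contra hu
  obtain ⟨x, hx⟩ := exists_hermForm_ne_zero hF hu
  exact hx (hermForm_eq_zero_comm hF (h x trivial))

lemma two_eq_zero_of_card (hF : Fintype.card F = 2 ^ 2) : (2 : F) = 0 := by
  have h4 := Nat.cast_card_eq_zero F
  rw [hF] at h4
  have : (2 : F) ^ 2 = 0 := by exact_mod_cast h4
  exact pow_eq_zero_iff (two_ne_zero) |>.1 this

lemma skew_two (hF : Fintype.card F = 2 ^ 2) {c : F} (hc : c + c ^ 2 = 0) : c = 0 ∨ c = 1 := by
  have h2 := two_eq_zero_of_card hF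
  have : c * (c - 1) = 0 := by linear_combination hc - c * h2
  rcases mul_eq_zero.1 this with h | h
  · exact Or.inl h
  · exact Or.inr (sub_eq_zero.1 h)

lemma one_skew_two (hF : Fintype.card F = 2 ^ 2) : (1 : F) + 1 ^ 2 = 0 := by
  have h2 := two_eq_zero_of_card hF
  linear_combination h2

/-- The inductive step, odd dimension. -/
theorem main_step_o (hF : Fintype.card F = q ^ 2) (hm : 3 ≤ m) (ho : Odd m)
    (h32 : ¬ (m = 3 ∧ q = 2)) (hWB : WBo F q m) (H : Subgroup (Cfsg.SU (m + 2) F q))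
    (hH : H ≠ ⊤) : NO q (m + 2) ≤ H.index := by
  have hq2 : 2 ≤ q := two_le_of_card_sq hF
  have ho2 : Odd (m + 2) := ho.add_even even_two
  by_cases hBig : HasBig hF H
  · exact Cfsg.Agent.Lib.Helper37.MinSU.O.step1 hF (by omega) ho2 H hH hBig
  obtain ⟨e, L, he0, hee, hrho, heps⟩ := exists_loc hF m (by omega)
  obtain ⟨W, hWn, hWd, hWm, hWf⟩ := exists_iotaW (q := q) (F := F) hF m
  have heut : ∀ (w : Fin m → F) (c : F), Cfsg.hermForm m F q w w = 0 → c + c ^ q = 0 →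
      ((L.eps (ut hF w c) : Pe q e) : Cfsg.SU (m + 2) F q) = ut hF (iota w) c := by
    intro w c hw hc
    exact eq_ut_iota hF w c hw hc _ (heps _)
  have key : ∀ g : Cfsg.SU (m + 2) F q,
      ((cj g H).subgroupOf (Pe q e)).index ≤ H.index ∧
      (∀ a : F, a + a ^ q = 0 → (L.rho 0 a ∈ (cj g H).subgroupOf (Pe q e) ↔
        ut hF (g.1.1 *ᵥ e) a ∈ H)) ∧
      (∀ (w : Fin m → F) (c : F), Cfsg.hermForm m F q w w = 0 → c + c ^ q = 0 →
        (L.eps (ut hF w c) ∈ (cj g H).subgroupOf (Pe q e) ↔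
          ut hF (g.1.1 *ᵥ iota w) c ∈ H)) ∧
      (∀ (x : Pe q e) (w : Fin m → F) (c : F), Cfsg.hermForm m F q w w = 0 → c + c ^ q = 0 →
        x * L.eps (ut hF w c) * x⁻¹ ∈ (cj g H).subgroupOf (Pe q e) →
          (g * x) * ut hF (iota w) c * (g * x)⁻¹ ∈ H) := by
    intro g
    refine ⟨(relIndex_le_index' _ _).trans (index_cj g H).le, ?_, ?_, ?_⟩
    · intro a ha
      rw [Subgroup.mem_subgroupOf, hrho a ha, ut_mem_cj hF g H hee ha]
    · intro w c hw hc
      rw [Subgroup.mem_subgroupOf, heut w c hw hc, ut_mem_cj hF g H (by rw [hWf]; exact hw) hc]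
    · intro x w c hw hc h
      rw [Subgroup.mem_subgroupOf, mem_cj] at h
      simp only [Subgroup.coe_mul, Subgroup.coe_inv, heut w c hw hc] at h
      have e1 : g * ↑x * ut hF (iota w) c * (g * ↑x)⁻¹
          = g * (↑x * ut hF (iota w) c * (↑x)⁻¹) * g⁻¹ := by group
      rw [e1]
      exact h
  obtain ⟨u, hu, huu, c0, hc0, hu0⟩ : ∃ u : Fin (m + 2) → F, u ≠ 0 ∧
      Cfsg.hermForm (m + 2) F q u u = 0 ∧ ∃ c : F, c + c ^ q = 0 ∧ ut hF u c ∉ H := by
    by_contra hcon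
    push Not at hcon
    exact hH (eq_top_of_all hF (by omega) H hcon)
  by_cases hq : q = 2
  · -- q = 2
    subst hq
    have hm5 : 5 ≤ m := by
      obtain ⟨r, hr⟩ := ho
      by_contra hcon
      exact h32 ⟨by omega, rfl⟩
    have hc1 : c0 = 1 := by
      rcases skew_two hF hc0 with h | h
      · exfalso
        apply hu0
        rw [h, ut_zero hF huu]
        exact H.one_mem
      · exact h
    subst hc1
    obtain ⟨g, hg⟩ := exists_su_map hF (by omega) e u he0 hu hee huu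
    obtain ⟨k1, k2, -, k4⟩ := key g
    have hA : L.rho 0 1 ∉ (cj g H).subgroupOf (Pe 2 e) := by
      intro h
      rw [k2 1 hc0, hg] at h
      exact hu0 h
    rcases Cfsg.Agent.Lib.Helper22.MinSU.O.local_two L _ hF hm ho hWB hA with h | ⟨hBb, hS1, -, -⟩
    · exact h.trans k1
    exfalso
    obtain ⟨z, E, hz3, hfix, hEn, hEd, hcomm⟩ := Cfsg.Agent.Lib.Helper84.MinSU.O.exists_z hF hm5
    obtain ⟨x, hx1, hx⟩ := Cfsg.Agent.Lib.Helper92.MinSU.O.ztrick L _ hF hA hBb hS1 z hz3 hfix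
    have hA' : L.rho 0 1 ∉ ((cj g H).subgroupOf (Pe 2 e)).comap (MulAut.conj x).toMonoidHom := by
      intro h
      apply hA
      have h2 : x * L.rho 0 1 * x⁻¹ ∈ (cj g H).subgroupOf (Pe 2 e) := h
      rw [L.conj_center x 1 hc0, hx1] at h2
      simpa using h2
    have hk := Cfsg.Agent.Lib.Helper92.MinSU.O.kill_b L _ hF hA' E hEn hEd (fun w hw hww => hx _ (hcomm w hw hww))
    apply hBig
    refine Cfsg.Agent.Lib.Helper1.MinSU.O.hasBig_of_eps hF H (g * x) E hEn (Or.inr hEd) ?_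
    intro w hw hww c hc
    rcases skew_two hF hc with h | h
    · rw [h, ut_zero hF (by rw [hWf]; exact hww), mul_one, mul_inv_cancel]
      exact H.one_mem
    · rw [h]
      exact k4 x w 1 hww hc0 (hk w hw hww)
  · -- q ≥ 3
    have hq3 : 3 ≤ q := by omega
    have hRF2 : ∀ (g : Cfsg.SU (m + 2) F q) (x : Pe q e),
        ∃ l, x * L.eps l * x⁻¹ ∉ (cj g H).subgroupOf (Pe q e) := by
      intro g x
      by_contra hcon
      push Not at hcon
      apply hBig
      refine Cfsg.Agent.Lib.Helper1.MinSU.O.hasBig_of_eps hF H (g * x) ⊤ (nondeg_top hF) (Or.inl ⟨hq3, ?_⟩) ?_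
      · rw [finrank_top, Module.finrank_fin_fun]
        exact hm
      · intro w _ hww c hc
        exact (key g).2.2.2 x w c hww hc (hcon _)
    by_cases h0 : ∃ u : Fin (m + 2) → F, u ≠ 0 ∧ Cfsg.hermForm (m + 2) F q u u = 0 ∧
        ∀ c : F, c + c ^ q = 0 → ut hF u c ∈ H → c = 0
    · obtain ⟨u, hu, huu, hu0⟩ := h0
      obtain ⟨g, hg⟩ := exists_su_map hF (by omega) e u he0 hu hee huu
      obtain ⟨k1, k2, -, -⟩ := key g
      obtain ⟨s, hs0, hs⟩ := exists_skew_q hF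
      have hRF : L.RF ((cj g H).subgroupOf (Pe q e)) := by
        refine ⟨⟨s, hs, fun h => hs0 (hu0 s hs ?_)⟩, hRF2 g⟩
        rw [k2 s hs, hg] at h
        exact h
      refine (Cfsg.Agent.Lib.Helper12.MinSU.O.local_alpha L _ hF hq3 hm ho hWB hRF ?_).trans k1
      intro a ha h
      rw [k2 a ha, hg] at h
      exact hu0 a ha h
    · push Not at h0
      obtain ⟨g, hg⟩ := exists_su_map hF (by omega) e u he0 hu hee huu
      obtain ⟨k1, k2, k3, -⟩ := key g
      have hRF : L.RF ((cj g H).subgroupOf (Pe q e)) := by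
        refine ⟨⟨c0, hc0, fun h => hu0 ?_⟩, hRF2 g⟩
        rw [k2 c0 hc0, hg] at h
        exact h
      refine (Cfsg.Agent.Lib.Helper12.MinSU.O.local_beta L _ hF hm ho hRF ?_ ?_).trans k1
      · obtain ⟨c, hc, hcH, hcne⟩ := h0 u hu huu
        exact ⟨c, hcne, hc, by rw [k2 c hc, hg]; exact hcH⟩
      · intro w hw hww
        obtain ⟨c, hc, hcH, hcne⟩ := h0 (g.1.1 *ᵥ iota w)
          (Cfsg.Agent.Lib.Helper5.su_mulVec_ne_zero g (iota_ne_zero hw))
          (by rw [SU_preserves, hWf]; exact hww)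
        exact ⟨c, hcne, hc, by rw [k3 w c hww hc]; exact hcH⟩

/-- The lower bound in `SU_n(q)`, `n = 2k + 5`. -/
theorem main_su_o (hF : Fintype.card F = q ^ 2) (k : ℕ) :
    ∀ H : Subgroup (Cfsg.SU (2 * k + 5) F q), H ≠ ⊤ → NO q (2 * k + 5) ≤ H.index := by
  induction k with
  | zero =>
    intro H hH
    by_cases hq : q = 2
    · subst hq
      have h := Cfsg.Agent.Lib.Helper84.MinSU.O.end5_of hF
        (Cfsg.Agent.Lib.Helper90.MinSU.O.bad_stab hF) (Cfsg.Agent.Lib.Helper22.MinSU.O.bad_perp hF)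
        (Cfsg.Agent.Lib.Helper12.MinSU.O.perp_count hF) (Cfsg.Agent.Lib.Helper15.MinSU.O.ovoid_false hF)
        H hH
      have e : NO 2 (2 * 0 + 5) = 165 := by norm_num [NO]
      rw [e]
      exact h
    · exact main_step_o (m := 3) hF le_rfl (by decide) (fun h => hq h.2) (Cfsg.Agent.Lib.Helper57.MinSU.O.wb3 hF) H hH
  | succ k IH =>
    intro H hH
    have ho : Odd (2 * k + 5) := ⟨k + 2, by ring⟩
    exact main_step_o (m := 2 * k + 5) hF (by omega) ho (fun h => by omega)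
      (Cfsg.Agent.Lib.Helper1.MinSU.O.wb_of_ih hF (by omega) ho IH) H hH

end Cfsg.Agent.Lib.Helper83.MinSU
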